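import Cfsg.Agent.H697.HT.DPIso
import Cfsg.Agent.H766.HT.DPVal
import Cfsg.Agent.H316.HT.Defs

/-!
# Two-bead characters of the orthogonal groups (helper697, for S4933)

`IsoX p M Q P` : a character `X` of the isometry group of `Q` in the principal block, invariant under all semisimilarities,
the exponent of `p` in the degree satisfies `P`.
-/

set_option autoImplicit false
set_option linter.unusedSectionVars false

namespace Cfsg.Agent.H697.HT.XDP

open Module Cfsg Cfsg.Agent.H2.Pol Cfsg.Agent.H674.BR Cfsg.Agent.H711.DPol Cfsg.Agent.H410.BR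
open Cfsg.Agent.H697.HT.DPB0 Cfsg.Agent.H697.HT.DPIso Cfsg.Agent.H316.HT
open Cfsg.Agent.LieClassical.OrthFinite

variable {F : Type} [Field F] [Finite F] {ι : Type} [Fintype ι] [DecidableEq ι] {Q : QuadraticForm F (ι → F)}
  {w ε p : ℕ} {M : Ideal AlgInt}

/-- invariance under the semisimilarities -/
def SemiInv (Q : QuadraticForm F (ι → F)) (χ : Cfsg.isometryGroup F ⇑Q → ℂ) : Prop :=
  ∀ (γ : Cfsg.isometryGroup F ⇑Q ≃* Cfsg.isometryGroup F ⇑Q) (T : (ι → F) ≃+ (ι → F)), SemiAct (quadPol Q) T →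
    (∀ (g : Cfsg.isometryGroup F ⇑Q) (v : ι → F), isometryHom Q (γ g) (T v) = T (isometryHom Q g v)) →
    ∀ g, χ (γ g) = χ g

/-- a character of the isometry group in the principal block, invariant under the semisimilarities -/
def IsoX (p : ℕ) (M : Ideal AlgInt) (Q : QuadraticForm F (ι → F)) (P : ℕ → Prop) : Prop :=
  ∃ χ : IrrCharacter (Cfsg.isometryGroup F ⇑Q), χ ∈ principalBlock M (Cfsg.isometryGroup F ⇑Q) ∧
    SemiInv Q (χ : Cfsg.isometryGroup F ⇑Q → ℂ) ∧ P (vd p (χ : Cfsg.isometryGroup F ⇑Q → ℂ))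

theorem isoX_of_chi {j : ℕ} (hp : p.Prime) {P : ℕ → Prop}
    (hP : ∀ n : ℕ, (n : ℤ) = padicValRat p (H722.DPol.ff (Nat.card F : ℚ) ((Nat.card F ^ ε : ℕ) : ℚ) w j) → P n)
    (hχ : letI := isoAct Q w
      ∃ χ : IrrCharacter (Cfsg.isometryGroup F ⇑Q), χ ∈ principalBlock M (Cfsg.isometryGroup F ⇑Q) ∧
        IsChi (X := (quadPol Q).X w) cd w (Nat.card F) (Nat.card F ^ ε) j (χ : Cfsg.isometryGroup F ⇑Q → ℂ)) :
    IsoX p M Q P := by
  let _ := isoAct Q w
  obtain ⟨χ, h1, h2⟩ := hχ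
  refine ⟨χ, h1, fun γ T hT hγ => ?_, hP _ (h2.factorization hp)⟩
  exact h2.2 γ (iso_of_semi (iso_acts Q) hT γ hγ)

/-- **unitary primes** -/
theorem isoX_unitary (hM : IsPModular p M) (h : Typ Q w ε) {c j : ℕ} (hj : j ≤ w) (hc : (Nat.card F : ZMod p) ^ c = -1)
    (hQj : (Nat.card F : ZMod p) ^ j = 1) {P : ℕ → Prop}
    (hP : ∀ n : ℕ, (n : ℤ) = padicValRat p (H722.DPol.ff (Nat.card F : ℚ) ((Nat.card F ^ ε : ℕ) : ℚ) w j) → P n) :
    IsoX p M Q P := by
  classical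
  have _ := Fintype.ofFinite F
  have _ : Finite (Cfsg.isometryGroup F ⇑Q) := inferInstance
  have _ : Nonempty ((quadPol Q).X w) := (Nat.card_pos_iff.1 (h.card_X_pos le_rfl)).1
  let _ := isoAct Q w
  exact isoX_of_chi hM.1 hP (mem_unitary hM Finite.one_lt_card rfl h.pos (dp_iso h) hj hc hQj)

/-- **linear primes** -/
theorem isoX_linear (hM : IsPModular p M) (h : Typ Q w ε) {e j : ℕ} (hj : j ≤ w)
    (he : ∀ k, 0 < k → k < e → (Nat.card F : ZMod p) ^ k ≠ 1)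
    (hQj : (Nat.card F : ZMod p) ^ j = 1)
    (hI : letI := isoAct Q w; Ines1 p e (Cfsg.isometryGroup F ⇑Q) (X := (quadPol Q).X w) cd) {P : ℕ → Prop}
    (hP : ∀ n : ℕ, (n : ℤ) = padicValRat p (H722.DPol.ff (Nat.card F : ℚ) ((Nat.card F ^ ε : ℕ) : ℚ) w j) → P n) :
    IsoX p M Q P := by
  classical
  have _ := Fintype.ofFinite F
  have _ : Finite (Cfsg.isometryGroup F ⇑Q) := inferInstance
  have _ : Nonempty ((quadPol Q).X w) := (Nat.card_pos_iff.1 (h.card_X_pos le_rfl)).1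
  let _ := isoAct Q w
  exact isoX_of_chi hM.1 hP (mem_linear hM Finite.one_lt_card (Nat.one_le_pow _ _ Nat.card_pos) h.pos (dp_iso h) hj he hQj
    hI)

/-- **linear primes**, weight `p ≤ w / e < p ^ 2`, `w / e ≢ -1` -/
theorem isoX_linear_one (hp2 : p ≠ 2) (hM : IsPModular p M) (h : Typ Q w ε) {e : ℕ} (he : orderOf (Nat.card F : ZMod p) = e)
    (hodd : Odd e) (h1 : p ≤ w / e) (h2 : w / e < p * p) (h3 : (w / e) % p ≠ p - 1)
    (hI : letI := isoAct Q w; Ines1 p e (Cfsg.isometryGroup F ⇑Q) (X := (quadPol Q).X w) cd) :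
    IsoX p M Q fun n => n = 1 := by
  have hpr : Fact p.Prime := ⟨hM.1⟩
  have he0 : 0 < e := hodd.pos
  refine isoX_linear hM h (e := e) (j := e * (p - 1)) ?_ ?_ ?_ hI ?_
  · have h4 : e * (w / e) ≤ w := Nat.mul_div_le w e
    have h5 : e * (p - 1) ≤ e * (w / e) := Nat.mul_le_mul_left _ (by omega)
    omega
  · intro k hk0 hk hk1
    have h4 := orderOf_dvd_of_pow_eq_one hk1
    rw [he] at h4
    exact absurd (Nat.le_of_dvd hk0 h4) (by omega)
  · rw [pow_mul, ← he, pow_orderOf_eq_one, one_pow]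
  · intro n hn
    rw [H766.HT.val_ff_linear hp2 Finite.one_lt_card he hodd ε h1 h2 h3] at hn
    exact_mod_cast hn

end Cfsg.Agent.H697.HT.XDP
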